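import Mathlib
import Cfsg.Agent.Lib.McLR3.C0
import Cfsg.Agent.Lib.McLR3.C1
import Cfsg.Agent.Lib.McLR3.R.Main
import Cfsg.Agent.Lib.MultC.ConwayIso
import Cfsg.Agent.Lib.LieModel.U43.Iso

/-!
# The McLaughlin group as a rank 3 group
-/

set_option autoImplicit false
set_option maxRecDepth 100000

namespace CfsgLib.McLR3

open CfsgLib.Comput CfsgLib.SubCl CfsgLib.Rank3 CfsgLib.Leech MulAction Subgroup Equiv
open scoped Pointwise

local notation "g" => permG 275 CMcL.W
local notation "pt" => finPt 275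

/-- the McLaughlin group on 275 points -/
noncomputable abbrev GP : Subgroup (Perm (Fin 275)) := cl g CMcL.top

local notation "H" => St GP (pt 0)

theorem M : SM g 275 pt st := CMcL.M

theorem hH : H = cl g CMcL.L0.hs := by
  rw [GP, CMcL.top_eq CMcL.E]; exact (CMcL.good_0 CMcL.M CMcL.E).1.stabilizer_eq (CMcL.M.fixes (by decide +kernel))

theorem cH : Nat.card H = 3265920 := by rw [hH]; exact CMcL.card_1 CMcL.M CMcL.E

theorem hA : InA g 0x7ffffffff0 H := hH ▸ CMcL.inA_1 CMcL.E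

theorem hg : ∀ m, g m ∈ GP := mem_of_inA (j := 39) (CMcL.inA_top CMcL.E) (by decide +kernel)

theorem V : WM g sT (idTab 275 9) := WM.perm CMcL.W_ok (by norm_num)

theorem md : Md g st GP 0x7ffffffff0 0 6 59 D E Rb Rc 112 162 := md_of M hg hH (hH ▸ hA) c_md

theorem goalK : ∀ K ≤ H, Nat.card K = 29160 → Goal K (sem 275 pt D) := by
  have : Fact (Nat.Prime 3) := ⟨Nat.prime_three⟩
  have : Fact (Nat.Prime 5) := ⟨by norm_num⟩
  exact (seed_of_pgroup (k := 112) (isPGroup_of_pc V c_pc3) (cl_le_of_inA hA (by decide +kernel)) cH (by norm_num)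
    (sub_cl _ (by decide +kernel))).goal (leaf_sound M (List.forall_mem_singleton.2 ⟨md.kD,
      (al_div M md.kD (by norm_num) (fun _ _ => dvd_zero _) c_alK).land (al_seed M (seed_of_pgroup (k := 112)
        (isPGroup_of_pc V c_pc5) (cl_le_of_inA hA (by decide +kernel)) cH (by norm_num) (sub_sing.2 le_rfl)) md.kD
        c_al5)⟩) (by simp) _ _ _ c_K) md.kD

theorem le_H {us ws : List ℕ} (h : allL (inA 0x7ffffffff0) us = true) : cl (fun m => ev g (nth 0 us m)) ws ≤ H :=
  cl_le.2 fun w _ => ev_mem_of_all (ev_nth_mem fun u hu => ev_mem hA (allL_sound h u hu)) w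

theorem goods : ∀ U ∈ [U0, U1, U2, U3], Md.Good GP 0 6 59 U := by
  obtain ⟨e, h1, h2, h3⟩ := exists_equiv_of_lab' (M.words us1) R.M (allLt_sound c_lab) (le_H (by decide +kernel))
    (cH.trans R.card_perm.symm).le
  obtain ⟨e', -, -, h4⟩ := exists_equiv_of_lab' (M.words us2) R.M (allLt_sound c_lab2) (le_H (by decide +kernel))
    (cH.trans R.card_perm.symm).le
  have T := md.tw h1 h2 h3 h4 c_WS c_tw
  have S := (SM.perm c_WS (by norm_num)).sem_act 1
  simp only [List.forall_mem_cons]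
  exact ⟨md.good Tw.refl (one_smul _ _) c_good0, md.good T (S _).symm c_good1,
    md.good (T.trans T) (by rw [S, S, mul_smul]) c_good2,
    md.good ((T.trans T).trans T) (by rw [S, S, S, mul_smul, mul_smul]) c_good3, by simp⟩

theorem facts : Facts GP (pt 0) (pt 6) (pt 59) 112 162 where
  R := md.R
  simple := CMcL.simple_perm
  hd := by norm_num
  HK := md.HK (s := 29160) cH goalK
  H1 := md.H1 c_H1
  HL := haveI : Fact (Nat.Prime 7) := ⟨by norm_num⟩
    md.HL (s := 20160) cH (seed_of_pgroup (k := 162) (isPGroup_of_pc V c_pc7) (cl_le_of_inA hA (by decide +kernel)) cH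
      (by norm_num) (sub_sing.2 le_rfl)) goods c_L1 c_L2
  hinj := md.hinj c_inj
  H2 := md.H2 c_H2
  HA := md.HA M hg c_aut (by rw [CMcL.card_perm])

theorem recog {Ω : Type*} [Fintype Ω] (hΩ : Fintype.card Ω = 275) (G : Subgroup (Perm Ω)) [IsPretransitive G Ω]
    {a b c : Ω} {K : Type} [Field K] [Fintype K] (hK : Fintype.card K = 9) (e : stabilizer G a ≃* Cfsg.PSU 4 K 3)
    (hb : (orbit (stabilizer G a) b).ncard = 112) (hc : (orbit (stabilizer G a) c).ncard = 162) :
    Nonempty (G ≃* Cfsg.Spor.McL) := by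
  obtain ⟨f⟩ := nonempty_equiv_of_sets (M.words vs) LieModel.U43.P.M c_ms c_set (le_H (by decide +kernel))
    (cH.trans LieModel.U43.card_PG.symm).le
  obtain ⟨f'⟩ := LieModel.U43.iso hK
  obtain ⟨f''⟩ := MultC.isoMcL
  obtain ⟨ψ⟩ := facts.recog hΩ G (e.trans (f'.trans f.symm)) hb hc
  exact ⟨ψ.trans f''.symm⟩

end CfsgLib.McLR3
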